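import Mathlib
import Cfsg.Agent.Lib.Helper14.DG33.Defs
import Cfsg.Agent.Lib.Helper3.IndFun
import Cfsg.Agent.Lib.Helper3.CharCore
import Cfsg.Agent.Lib.Helper3.CharValues
import Cfsg.Agent.Lib.Helper75.CharInd

/-!
# Project DG33 (S3670): package [DEGG]
-/

set_option autoImplicit false

namespace Cfsg.Agent.Lib.Helper90.DG33

open Cfsg
open Cfsg.Agent.Lib.Helper14.DG33
open scoped ComplexConjugate

universe u

open Classical in
/-- A subgroup of order 3 is `{1, z, z⁻¹}` for each of its non-identity elements `z`: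
sums of an indicator over the group. -/
theorem sum_card_three {G : Type u} [Group G] [Fintype G] (Z : Subgroup G)
    (hZ : Nat.card Z = 3) {z : G} (hz : z ∈ Z) (hz1 : z ≠ 1) (F : G → ℂ) :
    ∑ g : G, (if g ∈ Z then F g else 0) = F 1 + F z + F z⁻¹ := by
  have hz3 : z ^ 3 = 1 := by
    have h := pow_card_eq_one' (G := Z) (x := ⟨z, hz⟩)
    rw [hZ] at h
    have h2 := congrArg (fun x : Z => (x : G)) h
    simpa using h2
  have hzi : z ≠ z⁻¹ := by
    intro h
    apply hz1
    have h2 : z * z = 1 := by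
      nth_rw 2 [h]
      exact mul_inv_cancel z
    have h3 : z ^ 3 = z * z * z := by rw [pow_succ, pow_two]
    rw [h3, h2, one_mul] at hz3
    exact hz3
  have h1z : (1 : G) ≠ z := fun h => hz1 h.symm
  have h1zi : (1 : G) ≠ z⁻¹ := by
    intro h
    apply hz1
    have := congrArg (fun x => x⁻¹) h
    simpa using this.symm
  have hST : ({1, z, z⁻¹} : Finset G) = Finset.univ.filter (fun g => g ∈ Z) := by
    apply Finset.eq_of_subset_of_card_le
    · intro g hg
      simp only [Finset.mem_insert, Finset.mem_singleton] at hg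
      simp only [Finset.mem_filter, Finset.mem_univ, true_and]
      rcases hg with rfl | rfl | rfl
      · exact Z.one_mem
      · exact hz
      · exact Z.inv_mem hz
    · have hc : (Finset.univ.filter (fun g => g ∈ Z)).card = 3 := by
        rw [← hZ, Nat.card_eq_fintype_card, Fintype.card_subtype]
      rw [hc, Finset.card_insert_of_notMem (by simp [h1z, h1zi]),
        Finset.card_insert_of_notMem (by simp [hzi]), Finset.card_singleton]
  rw [← Finset.sum_filter, ← hST, Finset.sum_insert (by simp [h1z, h1zi]),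
    Finset.sum_insert (by simp [hzi]), Finset.sum_singleton, add_assoc]

open Classical in
/-- Sums over a subgroup `B` of an indicator of `Z ≤ B` are sums over the group. -/
theorem sum_subgroup_indicator {G : Type u} [Group G] [Fintype G] (B Z : Subgroup G)
    [Fintype B] (hZB : Z ≤ B) (F : G → ℂ) :
    ∑ b : B, (if (b : G) ∈ Z then F b else 0) = ∑ g : G, (if g ∈ Z then F g else 0) := by
  have h1 : ∑ g : G, (if g ∈ Z then F g else 0) =
      ∑ g ∈ Finset.univ.filter (fun g : G => g ∈ B), (if g ∈ Z then F g else 0) := by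
    symm
    apply Finset.sum_subset (Finset.filter_subset _ _)
    intro g _ hg
    have hgB : g ∉ B := by simpa using hg
    have hgZ : g ∉ Z := fun h => hgB (hZB h)
    simp [hgZ]
  rw [h1]
  symm
  exact Finset.sum_subtype (Finset.univ.filter (fun g : G => g ∈ B)) (by simp)
    (fun g => if g ∈ Z then F g else 0)

/-- Package [DEGG]. -/
theorem pkgDegG : PkgDegG.{u} := by
  intro G _ _ B P Z t w hD lam hlam hDegSum hP3 χ hχ
  classical
  haveI : Fintype B := Fintype.ofFinite B
  have hcf : IsClassFunction G χ := Cfsg.Agent.Lib.Helper3.isClassFunction_of_isCharacter hχ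
  have hF : ∀ θ : B → ℂ, classInner (indFun B θ) χ = classInner θ (fun b : B => χ b) :=
    fun θ => Cfsg.Agent.Lib.Helper3.frobenius_reciprocity B θ χ hcf
  have hsum := hDegSum G B P Z t w hD lam hlam (fun b : B => χ b)
  have hZ3 : Nat.card Z = 3 := hD.cardZ
  obtain ⟨z, hzZ, hz1⟩ : ∃ z ∈ Z, z ≠ 1 := by
    by_contra hcon
    push_neg at hcon
    have hb : Z = ⊥ := by
      rw [Subgroup.eq_bot_iff_forall]; exact hcon
    rw [hb] at hZ3
    simp at hZ3
  have hzP : z ∈ P := hD.raw.ZP hzZ
  -- `χ z⁻¹ = χ z`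
  have hzinv : χ z⁻¹ = χ z := by
    rw [← hD.raw.tinv z hzZ]
    exact hcf z t
  have hc1 : conj (χ 1) = χ 1 := by
    have h := Cfsg.Agent.Lib.Helper3.isCharacter_inv hχ (1 : G)
    rw [inv_one] at h
    exact h.symm
  have hcz : conj (χ z) = χ z := by
    rw [← Cfsg.Agent.Lib.Helper3.isCharacter_inv hχ z, hzinv]
  have hczi : conj (χ z⁻¹) = χ z := by
    rw [hzinv, hcz]
  have hS : ∑ b : B, (if (b : G) ∈ Z then conj (χ b) else 0) = χ 1 + 2 * χ z := by
    rw [sum_subgroup_indicator B Z (hD.raw.ZP.trans hD.raw.PB) (fun g => conj (χ g)),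
      sum_card_three Z hZ3 hzZ hz1 (fun g => conj (χ g))]
    simp only [hc1, hcz, hczi]
    ring
  -- the group `P` of order 27
  have hP := hP3 P (Z.subgroupOf P) hD.cardP
    (by rw [Nat.card_congr (Subgroup.subgroupOfEquivOfLe hD.raw.ZP).toEquiv]; exact hZ3)
    (by
      intro y hy p
      apply Subtype.ext
      simpa using hD.raw.Zcent y.1 (Subgroup.mem_subgroupOf.mp hy) p.1 p.2)
    (by
      intro p q
      rw [Subgroup.mem_subgroupOf]
      simpa using hD.raw.Pcomm p.1 p.2 q.1 q.2)
    (by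
      intro p hp
      have hp' : (p : G) ∉ Z := fun h => hp (Subgroup.mem_subgroupOf.mpr h)
      obtain ⟨q, hq, hne⟩ := hD.raw.Pnc p.1 p.2 hp'
      refine ⟨⟨q, hq⟩, fun h => hne ?_⟩
      have := congrArg (fun x : P => (x : G)) h
      simpa using this)
    (fun p : P => χ p) (Cfsg.Agent.Lib.Helper75.isCharacter_res P hχ) ⟨z, hzP⟩
    (Subgroup.mem_subgroupOf.mpr hzZ)
    (by
      intro h
      apply hz1
      have := congrArg (fun x : P => (x : G)) h
      simpa using this)
    (by
      show χ z = χ ((⟨z, hzP⟩ : P)⁻¹ : P)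
      rw [Subgroup.coe_inv]
      exact hzinv.symm)
  obtain ⟨m, hm⟩ := hP
  have hm' : χ 1 - χ z = 9 * (m : ℂ) := by simpa using hm
  refine ⟨m, ?_⟩
  have hrw : (∑ j ∈ Finset.range 8, classInner (indFun B (lamJ lam j)) χ) =
      ∑ j ∈ Finset.range 8, classInner (lamJ lam j) (fun b : B => χ b) :=
    Finset.sum_congr rfl (fun j _ => hF _)
  rw [hrw, hF, hsum, hS]
  have hz' : χ z = χ 1 - 9 * (m : ℂ) := by linear_combination -hm'
  rw [hz']
  ring

end Cfsg.Agent.Lib.Helper90.DG33
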