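import Mathlib
import Cfsg.Agent.Lib.Helper14.DG33.Defs
import Cfsg.Agent.Lib.Helper90.DG33.DegSum

/-!
# Project DG33 (S3670): package [GRAMLL]
-/

set_option autoImplicit false

namespace Cfsg.Agent.Lib.Helper90.DG33

open Cfsg
open Cfsg.Agent.Lib.Helper14.DG33
open scoped ComplexConjugate

universe u

theorem norm_of_pow_eight {z : ℂ} (h : z ^ 8 = 1) : ‖z‖ = 1 :=
  Complex.norm_eq_one_of_pow_eq_one h (by norm_num)

theorem conj_of_pow_eight {z : ℂ} (h : z ^ 8 = 1) : conj z = z⁻¹ :=
  (Complex.inv_eq_conj (norm_of_pow_eight h)).symm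

/-- Geometric sum of an 8th root of unity. -/
theorem sum_range_eight {η : ℂ} (h : η ^ 8 = 1) :
    ∑ k ∈ Finset.range 8, η ^ k = if η = 1 then 8 else 0 := by
  by_cases h1 : η = 1
  · rw [if_pos h1, h1]
    simp
  · rw [if_neg h1, geom_sum_eq h1 8, h, sub_self, zero_div]

theorem lamJ_classFunction {G : Type u} [Group G] {B : Subgroup G} (lam : B →* ℂˣ) (k : ℕ) :
    IsClassFunction B (lamJ lam k) := by
  intro g h
  simp only [lamJ, map_mul, map_inv]
  rw [mul_comm (lam h), mul_inv_cancel_right]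

/-- `extendByZero` on an element of the subgroup. -/
theorem ext_mem {G : Type u} [Group G] (B : Subgroup G) (θ : B → ℂ) (b : B) :
    extendByZero B θ (b : G) = θ b := by
  unfold extendByZero
  exact Subtype.val_injective.extend_apply θ 0 b

/-- `extendByZero` off the subgroup. -/
theorem ext_not_mem {G : Type u} [Group G] (B : Subgroup G) (θ : B → ℂ) {y : G} (hy : y ∉ B) :
    extendByZero B θ y = 0 := by
  unfold extendByZero
  rw [Function.extend_apply']
  · rfl
  · rintro ⟨b, hb⟩
    exact hy (hb ▸ b.2)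

/-- The value of `lamJ` on a power of `t`. -/
theorem lamJ_pow_t {G : Type u} [Group G] {B : Subgroup G} (lam : B →* ℂˣ) {t : G} (ht : t ∈ B)
    (i k : ℕ) : lamJ lam i ((⟨t, ht⟩ : B) ^ k) = (((lam ⟨t, ht⟩ : ℂˣ) : ℂ) ^ k) ^ i := by
  show ((lam ((⟨t, ht⟩ : B) ^ k) : ℂˣ) : ℂ) ^ i = _
  rw [map_pow, Units.val_pow_eq_pow_val]

theorem pkgGramLL : PkgGramLL.{u} := by
  intro G _ _ B P Z t w hD lam hlam hMackey i j hi hj
  classical
  haveI : Fintype B := Fintype.ofFinite B
  have hTB : Subgroup.zpowers t ≤ B := by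
    rw [Subgroup.zpowers_le]
    exact hD.raw.tB
  rw [hMackey G B (Subgroup.zpowers t) w hTB hD.raw.wB hD.raw.bruhat hD.raw.inter _ _
    (lamJ_classFunction lam i) (lamJ_classFunction lam j)]
  set ζ : ℂ := ((lam ⟨t, hD.raw.tB⟩ : ℂˣ) : ℂ) with hζ
  have hprim : IsPrimitiveRoot ζ 8 := hlam.prim hD.raw.tB
  have hζ8 : ζ ^ 8 = 1 := hprim.pow_eq_one
  have hζ0 : ζ ≠ 0 := hprim.ne_zero (by norm_num)
  have hconj : ∀ n : ℕ, conj (ζ ^ n) = (ζ ^ n)⁻¹ := by
    intro n
    apply conj_of_pow_eight
    rw [← pow_mul, mul_comm, pow_mul, hζ8, one_pow]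
  congr 1
  · -- the inner product on `B`
    unfold classInner
    by_cases hij : i = j
    · subst hij
      rw [if_pos rfl]
      have h1 : ∀ b : B, lamJ lam i b * conj (lamJ lam i b) = 1 := by
        intro b
        simp only [lamJ]
        have h8 : (((lam b : ℂˣ) : ℂ) ^ i) ^ 8 = 1 := by
          rw [← pow_mul, mul_comm, pow_mul, lam_pow_eight hD hlam b, one_pow]
        rw [conj_of_pow_eight h8]
        apply mul_inv_cancel₀
        exact pow_ne_zero _ (Units.ne_zero _)
      simp_rw [h1]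
      rw [Finset.sum_const, Finset.card_univ, ← Nat.card_eq_fintype_card, nsmul_eq_mul, mul_one]
      apply inv_mul_cancel₀
      rw [hD.cardB]
      norm_num
    · rw [if_neg hij]
      have hmul : ∀ b : B, lamJ lam i (⟨t, hD.raw.tB⟩ * b) *
          conj (lamJ lam j (⟨t, hD.raw.tB⟩ * b)) =
          (ζ ^ i * conj (ζ ^ j)) * (lamJ lam i b * conj (lamJ lam j b)) := by
        intro b
        simp only [lamJ, map_mul, Units.val_mul, mul_pow, hζ]
        ring
      have hS : ∑ b : B, lamJ lam i b * conj (lamJ lam j b) =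
          (ζ ^ i * conj (ζ ^ j)) * ∑ b : B, lamJ lam i b * conj (lamJ lam j b) := by
        calc ∑ b : B, lamJ lam i b * conj (lamJ lam j b)
            = ∑ b : B, lamJ lam i (⟨t, hD.raw.tB⟩ * b) *
                conj (lamJ lam j (⟨t, hD.raw.tB⟩ * b)) :=
              (Fintype.sum_equiv (Equiv.mulLeft (⟨t, hD.raw.tB⟩ : B))
                (fun b => lamJ lam i (⟨t, hD.raw.tB⟩ * b) *
                  conj (lamJ lam j (⟨t, hD.raw.tB⟩ * b)))
                (fun b => lamJ lam i b * conj (lamJ lam j b)) (fun _ => rfl)).symm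
          _ = ∑ b : B, (ζ ^ i * conj (ζ ^ j)) * (lamJ lam i b * conj (lamJ lam j b)) :=
              Finset.sum_congr rfl (fun b _ => hmul b)
          _ = _ := by rw [Finset.mul_sum]
      have hne : ζ ^ i * conj (ζ ^ j) ≠ 1 := by
        rw [hconj j]
        intro h
        apply hij
        have h2 : ζ ^ i = ζ ^ j := by
          have hz : ζ ^ j ≠ 0 := pow_ne_zero _ hζ0
          field_simp at h
          exact h
        exact hprim.pow_inj hi hj h2
      have h3 : (1 - ζ ^ i * conj (ζ ^ j)) * ∑ b : B, lamJ lam i b * conj (lamJ lam j b) = 0 := by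
        rw [sub_mul, one_mul, ← hS, sub_self]
      rcases mul_eq_zero.mp h3 with h | h
      · exact absurd (sub_eq_zero.mp h).symm hne
      · rw [h, mul_zero]
  · -- the `T`-term
    have hcardT : (Nat.card (Subgroup.zpowers t) : ℂ) = 8 := by
      rw [Nat.card_zpowers, hD.raw.ordt]
      norm_num
    rw [hcardT]
    have hterm : ∀ k : ℕ, extendByZero B (lamJ lam i) (t ^ k) *
        conj (extendByZero B (lamJ lam j) (w⁻¹ * t ^ k * w)) =
        (ζ ^ i * conj (ζ ^ (5 * j))) ^ k := by
      intro k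
      have e0 : (t ^ k : G) = (((⟨t, hD.raw.tB⟩ : B) ^ k : B) : G) := by simp
      have e1 : extendByZero B (lamJ lam i) (t ^ k) = (ζ ^ k) ^ i := by
        rw [e0, ext_mem, lamJ_pow_t]
      have e2 : w⁻¹ * t ^ k * w = (((⟨t, hD.raw.tB⟩ : B) ^ (5 * k) : B) : G) := by
        have h1 : w⁻¹ * t ^ k * w = (w⁻¹ * t * w) ^ k := by
          have h2 := conj_pow (a := w⁻¹) (b := t) (i := k)
          rw [inv_inv] at h2
          exact h2.symm
        rw [h1, hD.raw.wt, ← pow_mul]
        simp
      have e3 : extendByZero B (lamJ lam j) (w⁻¹ * t ^ k * w) = (ζ ^ (5 * k)) ^ j := by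
        rw [e2, ext_mem, lamJ_pow_t]
      rw [e1, e3, mul_pow, ← map_pow, ← pow_mul, ← pow_mul, ← pow_mul, ← pow_mul]
      congr 2
      · ring
      · ring
    have hsupp : ∑ y : G, extendByZero B (lamJ lam i) y *
        conj (extendByZero B (lamJ lam j) (w⁻¹ * y * w)) =
        ∑ k ∈ Finset.range 8, (ζ ^ i * conj (ζ ^ (5 * j))) ^ k := by
      rw [← Finset.sum_subset (Finset.subset_univ ((Finset.range 8).image (fun k => t ^ k)))]
      · rw [Finset.sum_image]
        · exact Finset.sum_congr rfl (fun k _ => hterm k)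
        · intro a ha b hb hab
          have hinj := pow_injOn_Iio_orderOf (x := t)
          rw [hD.raw.ordt] at hinj
          exact hinj (by simpa using ha) (by simpa using hb) hab
      · intro y _ hy
        by_cases hyB : y ∈ B
        · have hyT : y ∉ Subgroup.zpowers t := by
            intro hT
            apply hy
            have h4 := (mem_zpowers_iff_mem_range_orderOf (x := t) (y := y)).mp hT
            rw [hD.raw.ordt] at h4
            exact h4
          have hw : w⁻¹ * y * w ∉ B := fun h => hyT ((hD.raw.inter y hyB).mp h)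
          rw [ext_not_mem B _ hw, map_zero, mul_zero]
        · rw [ext_not_mem B _ hyB, zero_mul]
    rw [hsupp]
    have hη8 : (ζ ^ i * conj (ζ ^ (5 * j))) ^ 8 = 1 := by
      rw [hconj, mul_pow, inv_pow, ← pow_mul, ← pow_mul, mul_comm i 8, mul_comm (5 * j) 8,
        pow_mul, pow_mul ζ 8 (5 * j), hζ8, one_pow, one_pow, inv_one, mul_one]
    rw [sum_range_eight hη8]
    have hiff : ζ ^ i * conj (ζ ^ (5 * j)) = 1 ↔ i = (5 * j) % 8 := by
      rw [hconj]
      have hz : ζ ^ (5 * j) ≠ 0 := pow_ne_zero _ hζ0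
      have hmod : ζ ^ (5 * j) = ζ ^ ((5 * j) % 8) := pow_eq_pow_mod (5 * j) hζ8
      constructor
      · intro h
        have h2 : ζ ^ i = ζ ^ (5 * j) := by
          field_simp at h
          exact h
        rw [hmod] at h2
        exact hprim.pow_inj hi (Nat.mod_lt _ (by norm_num)) h2
      · intro h
        rw [hmod, ← h]
        exact mul_inv_cancel₀ (pow_ne_zero _ hζ0)
    by_cases h5 : i = (5 * j) % 8
    · rw [if_pos (hiff.mpr h5), if_pos h5]
      norm_num
    · rw [if_neg (fun h => h5 (hiff.mp h)), if_neg h5, mul_zero]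

end Cfsg.Agent.Lib.Helper90.DG33
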